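import Cfsg.Agent.Lib.LinearThreeFourType.Exists

/-!
A frame passes to quotients by subgroups of odd order.
-/

set_option autoImplicit false
set_option linter.unusedSectionVars false
set_option linter.style.haveILetI false

namespace CfsgLib.LinearThreeFourType

open Subgroup Cfsg

universe u v

variable {G : Type u} [Group G] [Finite G]

/-- The Sylow subgroup of a frame is a model. -/
theorem Frame.model (F : Frame G) :
    Model ↥(F.S : Subgroup G) (F.A.subgroupOf F.S) (F.B.subgroupOf F.S) where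
  comm_A a ha a' ha' := Subtype.ext (F.A_comm ha ha')
  comm_B b hb b' hb' := Subtype.ext (F.B_comm hb hb')
  sq_A a ha := Subtype.ext (F.A_sq ha)
  sq_B b hb := Subtype.ext (F.B_sq hb)
  card_A := (Nat.card_congr (subgroupOfEquivOfLe F.A_le).toEquiv).trans F.card_A
  card_B := (Nat.card_congr (subgroupOfEquivOfLe F.B_le).toEquiv).trans F.card_B
  card_Z :=
    (Nat.card_congr (subgroupOfEquivOfLe (inf_le_left.trans F.A_le : F.A ⊓ F.B ≤ F.S)).toEquiv).trans
      F.card_Z
  card := F.card_S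
  sup_eq := by rw [← subgroupOf_sup F.A_le F.B_le, F.sup_eq, subgroupOf_self]
  conj_A s a ha := (mem_normalizer_iff.1 (F.norm_A s.2) _).1 ha
  conj_B s b hb := (mem_normalizer_iff.1 (F.norm_B s.2) _).1 hb
  invol x hx := F.invol x x.2 (congrArg Subtype.val hx)
  cent_A a ha haB s hs := F.cent_A a ha haB s s.2 (congrArg Subtype.val hs)
  cent_B b hb hbA s hs := F.cent_B b hb hbA s s.2 (congrArg Subtype.val hs)
  central z hz s := Subtype.ext (F.central z hz s s.2)

/-- The image of a frame modulo a normal subgroup of odd order. -/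
theorem Frame.map {H : Type v} [Group H] (F : Frame G) (π : G →* H) (hπ : Function.Surjective π)
    (hodd : Odd (Nat.card ↥π.ker)) :
    ∃ F' : Frame H, (F'.S : Subgroup H) = (F.S : Subgroup G).map π ∧
      F'.A = F.A.map π ∧ F'.B = F.B.map π := by
  classical
  haveI : Fact (Nat.Prime 2) := ⟨Nat.prime_two⟩
  let φ : ↥(F.S : Subgroup G) →* H := π.comp (F.S : Subgroup G).subtype
  have hφ : Function.Injective φ := by
    refine (injective_iff_map_eq_one φ).2 fun x hx => ?_
    have hk : (x : G) ∈ π.ker := hx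
    have h1 : orderOf (x : G) ∣ Nat.card ↥π.ker := Subgroup.orderOf_dvd_natCard _ hk
    have h2 : orderOf (x : G) ∣ 2 ^ 6 := by
      rw [show 2 ^ 6 = Nat.card ↥(F.S : Subgroup G) from F.card_S.symm]
      exact Subgroup.orderOf_dvd_natCard _ x.2
    have h3 : Nat.Coprime (Nat.card ↥π.ker) (2 ^ 6) := hodd.coprime_two_right.pow_right 6
    exact Subtype.ext (orderOf_eq_one_iff.1 (Nat.eq_one_of_dvd_coprimes h3 h1 h2))
  have hr : φ.range = ((F.S.mapSurjective hπ : Sylow 2 H) : Subgroup H) := by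
    rw [Sylow.coe_mapSurjective, MonoidHom.range_comp, range_subtype]
  refine ⟨Frame.ofModel F.model (F.S.mapSurjective hπ) φ hφ hr, rfl, ?_, ?_⟩
  · show (F.A.subgroupOf F.S).map (π.comp (F.S : Subgroup G).subtype) = _
    rw [← map_map, map_subgroupOf_eq_of_le F.A_le]
  · show (F.B.subgroupOf F.S).map (π.comp (F.S : Subgroup G).subtype) = _
    rw [← map_map, map_subgroupOf_eq_of_le F.B_le]

/-- A frame restricts to a subgroup containing the Sylow subgroup. -/
theorem Frame.restrict (F : Frame G) (M : Subgroup G) (hS : (F.S : Subgroup G) ≤ M) :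
    ∃ F' : Frame ↥M, (F'.S : Subgroup ↥M) = (F.S : Subgroup G).subgroupOf M ∧
      F'.A = F.A.subgroupOf M ∧ F'.B = F.B.subgroupOf M := by
  let φ : ↥(F.S : Subgroup G) →* ↥M := Subgroup.inclusion hS
  have hr : φ.range = ((F.S.subtype hS : Sylow 2 ↥M) : Subgroup ↥M) := by
    rw [Sylow.coe_subtype]
    ext x
    exact ⟨fun ⟨y, hy⟩ => hy ▸ y.2, fun hx => ⟨⟨x, hx⟩, rfl⟩⟩
  have hmap : ∀ C : Subgroup G, C ≤ (F.S : Subgroup G) →
      (C.subgroupOf F.S).map φ = C.subgroupOf M := by
    intro C hC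
    ext x
    exact ⟨fun ⟨y, hy, he⟩ => he ▸ hy, fun hx => ⟨⟨x, hC hx⟩, hx, rfl⟩⟩
  refine ⟨Frame.ofModel F.model (F.S.subtype hS) φ (Subgroup.inclusion_injective hS) hr, ?_, ?_, ?_⟩
  · exact Sylow.coe_subtype (h := hS)
  · exact hmap F.A F.A_le
  · exact hmap F.B F.B_le

end CfsgLib.LinearThreeFourType
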